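import Mathlib
import Cfsg.Agent.H221.CS.Basic
import Cfsg.Agent.H403.CS.AltPerm
import Cfsg.Agent.H934.OutB
import Cfsg.Agent.S2119

/-!
# S3677, task E2: `S` is not an alternating group (helper403)
-/

set_option autoImplicit false

namespace Cfsg.Agent.H403.CS

open Subgroup Cfsg Cfsg.Agent.H902 Cfsg.Agent.H221.CS Equiv Equiv.Perm
open Cfsg.Agent.H902.Art Cfsg.Agent.H902.Lte Cfsg.Agent.H364.SpVal Cfsg.Agent.H364.SpSmall

universe u

/-! ### groups -/

theorem card_cent_sub {Γ : Type*} [Group Γ] [Finite Γ] {S : Subgroup Γ} (y : S) :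
    Nat.card (centralizer ({y} : Set S)) ∣ Nat.card (centralizer ({(y : Γ)} : Set Γ)) := by
  let φ : centralizer ({y} : Set S) →* centralizer ({(y : Γ)} : Set Γ) :=
    { toFun := fun x => ⟨((x : S) : Γ), by
        have h := Subgroup.mem_centralizer_singleton_iff.1 x.2
        rw [Subgroup.mem_centralizer_singleton_iff]
        exact congrArg Subtype.val h⟩
      map_one' := rfl
      map_mul' := fun _ _ => rfl }
  apply Subgroup.card_dvd_of_injective φ
  intro a b hab
  apply Subtype.ext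
  apply Subtype.ext
  exact congrArg (fun z : centralizer ({(y : Γ)} : Set Γ) => (z : Γ)) hab

theorem card_cent_equiv' {G H : Type*} [Group G] [Group H] (e : G ≃* H) (x : G) :
    Nat.card (centralizer ({x} : Set G)) = Nat.card (centralizer ({e x} : Set H)) := by
  apply Nat.card_congr
  refine ⟨fun y => ⟨e y, ?_⟩, fun y => ⟨e.symm y, ?_⟩, fun y => ?_, fun y => ?_⟩
  · have h := Subgroup.mem_centralizer_singleton_iff.1 y.2
    rw [Subgroup.mem_centralizer_singleton_iff, ← map_mul, h, map_mul]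
  · have h := Subgroup.mem_centralizer_singleton_iff.1 y.2
    rw [Subgroup.mem_centralizer_singleton_iff]
    apply e.injective
    rw [map_mul, map_mul, e.apply_symm_apply, h]
  · simp
  · simp

theorem card_out_alt {S : Type u} [Group S] [Finite S] [IsSimpleGroup S] (hna : ¬ ∀ a b : S, a * b = b * a) {k : ℕ}
    (hk : 7 ≤ k) (e : S ≃* ↥(alternatingGroup (Fin k))) : Nat.card (Cfsg.Out S) = 2 := by
  have hna' : ¬ IsMulCommutative S := fun hc => hna fun a b => hc.is_comm.comm a b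
  have : Nontrivial (Fin k) := Fin.nontrivial_iff_two_le.2 (by omega)
  apply Cfsg.Agent.H934.OutB.card_out_of_aut hna'
  have h1 := Nat.card_congr (Equiv.ofBijective _ (Cfsg.Agent.S2119.result k (by omega) (by omega)))
  rw [Nat.card_congr (MulAut.congr e).toEquiv, ← h1, Nat.card_congr e.toEquiv, two_mul_nat_card_alternatingGroup]

variable {n p f M κ : ℕ} {Γ : Type u} [Group Γ] [Finite Γ] {S : Subgroup Γ}

/-- `2 n ∣ r - 1` for the chosen primes -/
theorem two_mul_dvd {n q r : ℕ} (hn : 3 ≤ n) (hr : r.Prime) (ho : orderOf ((q : ℕ) : ZMod r) = cl n q) : 2 * n ∣ r - 1 := by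
  have := Fact.mk hr
  have hcl : n ∣ cl n q ∧ (¬ Even n ∨ cl n q = 2 * n) := by
    rw [cl]
    split_ifs with h
    · exact ⟨Dvd.intro_left _ rfl, Or.inr rfl⟩
    · exact ⟨dvd_rfl, Or.inl fun h' => h (Or.inl h')⟩
  have hpos : 0 < cl n q := by
    rcases Nat.eq_zero_or_pos (cl n q) with h | h
    · have := hcl.1
      rw [cl] at h
      split_ifs at h <;> omega
    · exact h
  have hq : ((q : ℕ) : ZMod r) ≠ 0 := by
    intro h
    rw [h, orderOf_eq_zero_iff'.2] at ho
    · omega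
    · intro k hk
      rw [zero_pow (by omega)]
      exact zero_ne_one
  have h1 : cl n q ∣ r - 1 := ho ▸ ZMod.orderOf_dvd_card_sub_one hq
  rcases hcl.2 with h2 | h2
  · have hr2 : r ≠ 2 := by
      rintro rfl
      have := Nat.le_of_dvd (by norm_num) (hcl.1.trans h1)
      omega
    have h3 : 2 ∣ r - 1 := by
      obtain ⟨c, hc⟩ := hr.odd_of_ne_two hr2
      exact ⟨c, by omega⟩
    exact Nat.Coprime.mul_dvd_of_dvd_of_dvd (Nat.coprime_two_left.2 (Nat.not_even_iff_odd.1 h2)) h3 (hcl.1.trans h1)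
  · rw [← h2]; exact h1

/-- what is needed -/
structure AltD (n p f M κ k : ℕ) : Prop where
  hn : 3 ≤ n
  hY : Real (.C n) p f M
  hk : k ≤ 4 * n + 4
  hr : ∃ r : ℕ, r.Prime ∧ orderOf ((p ^ f : ℕ) : ZMod r) = cl n (p ^ f) ∧ r ≤ k
  pi : k.factorial ∣ 2 * M
  dvd : ∀ t, t ∣ AA n (p ^ f) → Nat.Coprime t κ → t ∣ Nat.gcd 2 (p ^ f - 1) * k.factorial
  kap : ∀ l : ℕ, l.Prime → l ∣ κ → l = p ∨ (5 ≤ n ∧ p ^ f = 2 ∧ l = 3) ∨ (5 ≤ n ∧ p ^ f = 3 ∧ l = 2) ∨
    (6 ≤ n ∧ (Even n ∨ p ^ f ≤ 3) ∧ l ∣ mm n (p ^ f) ∧ orderOf ((p ^ f : ℕ) : ZMod l) ≠ cl n (p ^ f))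

theorem altD (h : Dat n p f M κ Γ S) {k : ℕ} (e : S ≃* ↥(alternatingGroup (Fin k))) : AltD n p f M κ k := by
  obtain ⟨r, hrp, hro, hrS⟩ := h.dvd
  have hn := h.hn
  have hsim := h.simple
  have hFr := Fact.mk hrp
  have h2n := two_mul_dvd hn hrp hro
  have hr7 : 2 * n + 1 ≤ r := by
    have := Nat.le_of_dvd (by have := hrp.two_le; omega) h2n
    omega
  have hodd : Odd r := hrp.odd_of_ne_two (by omega)
  have hk2 : 2 ≤ k := by
    by_contra hcon
    have h1 : Subsingleton (alternatingGroup (Fin k)) := by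
      have : Subsingleton (Fin k) := Fin.subsingleton_iff_le_one.2 (by omega)
      infer_instance
    have h2 : Nontrivial S := hsim.toNontrivial
    obtain ⟨a, b, hab⟩ := h2
    exact hab (e.injective (Subsingleton.elim _ _))
  have hnt : Nontrivial (Fin k) := Fin.nontrivial_iff_two_le.2 hk2
  have hcard : 2 * Nat.card S = k.factorial := by
    rw [Nat.card_congr e.toEquiv, two_mul_nat_card_alternatingGroup, Nat.card_perm, Nat.card_fin]
  have hrk : r ≤ k := by
    rw [← Nat.Prime.dvd_factorial hrp, ← hcard]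
    exact hrS.mul_left _
  obtain ⟨c0, hc0, hcyc, hct⟩ := exists_cycle hodd (by omega) hrk
  set c : alternatingGroup (Fin k) := ⟨c0, hc0⟩ with hcdef
  have hco : orderOf c = r := by
    have h1 : orderOf c0 = r := by
      rw [hcyc.orderOf]
      have h2 := hcyc.cycleType
      rw [hct] at h2
      have h3 := Multiset.singleton_inj.1 h2
      exact h3.symm
    rw [← h1]
    exact (Subgroup.orderOf_mk c0 hc0)
  -- the number `k`
  have hyo : orderOf ((e.symm c : S) : Γ) = r := by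
    rw [Subgroup.orderOf_coe, MulEquiv.orderOf_eq, hco]
  have hC : Nat.card (centralizer ({c} : Set (alternatingGroup (Fin k)))) ∣ mm n (p ^ f) := by
    have h1 : Nat.card (centralizer ({c} : Set (alternatingGroup (Fin k)))) =
        Nat.card (centralizer ({e.symm c} : Set S)) := card_cent_equiv' e.symm c
    rw [h1]
    exact (card_cent_sub _).trans (h.tor r hrp hro _ hyo)
  have hmodd := mm_odd h.q_ge (by omega : 1 ≤ n)
  have hk3 : k ≤ r + 3 := by
    by_contra hcon
    have h1 := even_cent c hct (by omega)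
    exact Nat.not_even_iff_odd.2 hmodd (even_iff_two_dvd.2 (h1.two_dvd.trans hC))
  -- the index
  have hI : S.index ∣ 2 := by
    rw [← card_out_alt h.nonab (by omega : 7 ≤ k) e]
    exact h.index_dvd
  have hSI : Nat.card S * S.index ∣ k.factorial := by
    rw [← hcard, mul_comm 2]
    exact Nat.mul_dvd_mul_left _ hI
  -- `r` divides `M` exactly once
  have hrκ : ¬ r ∣ κ := by
    apply h.not_dvd hrp
    · rintro rfl
      have h0 : ((r ^ f : ℕ) : ZMod r) = 0 := by
        rw [ZMod.natCast_eq_zero_iff]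
        exact dvd_pow_self r (by have := h.hY.hf; omega)
      rw [h0, orderOf_eq_zero_iff'.2] at hro
      · rw [cl] at hro
        split_ifs at hro <;> omega
      · intro k hk
        rw [zero_pow (by omega)]
        exact zero_ne_one
    · rintro ⟨-, -, h3⟩; omega
    · rintro ⟨-, -, h3⟩; omega
    · rintro ⟨-, -, -, h3⟩; exact h3 hro
  have hfac : k.factorial.factorization r = 1 := by
    rw [Nat.factorization_factorial hrp (b := 2) (Nat.log_lt_of_lt_pow (by omega) (by nlinarith))]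
    rw [show Finset.Ico 1 2 = {1} from rfl, Finset.sum_singleton, pow_one]
    exact Nat.div_eq_of_lt_le (by omega) (by omega)
  have hM1 : M.factorization r = 1 := by
    have hI0 : S.index ≠ 0 := h.index_ne
    rw [← h.card_eq, Nat.factorization_mul h.kap_ne (Nat.mul_ne_zero Nat.card_pos.ne' hI0), Finsupp.add_apply,
      Nat.factorization_eq_zero_of_not_dvd hrκ, zero_add]
    apply le_antisymm
    · rw [← hfac]
      exact (Nat.factorization_le_iff_dvd (Nat.mul_ne_zero Nat.card_pos.ne' hI0) (Nat.factorial_ne_zero k)).2 hSI r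
    · apply (hrp.dvd_iff_one_le_factorization (Nat.mul_ne_zero Nat.card_pos.ne' hI0)).1
      exact hrS.mul_right _
  have hfus := h.fus r hrp hro hM1 _ hyo
  have hcnt := fus_count (y := ((e.symm c : S) : Γ)) hrp hyo (by
    intro j hj0 hjr
    have h1 : orderOf c0 = r := by rw [← hco]; exact (Subgroup.orderOf_mk c0 hc0).symm
    obtain ⟨g, hg, hgc⟩ := conj_sq hrp hcyc h1 hj0 hjr
    rw [isConj_iff]
    refine ⟨((e.symm ⟨g, hg⟩ : S) : Γ), ?_⟩
    have h2 : (⟨g, hg⟩ : alternatingGroup (Fin k)) * c * (⟨g, hg⟩ : alternatingGroup (Fin k))⁻¹ = c ^ (j ^ 2) :=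
      Subtype.ext hgc
    have h3 := congrArg (fun x => ((e.symm x : S) : Γ)) h2
    simpa using h3)
  have hr4 : r ≤ 4 * n + 1 := by
    have h1 := hcnt.trans hfus
    obtain ⟨b, hb⟩ := hodd
    omega
  refine ⟨hn, h.hY, by omega, ⟨r, hrp, hro, hrk⟩, ?_, ?_, h.kap⟩
  · rw [← hcard]
    exact Nat.mul_dvd_mul_left _ h.pi
  · intro t ht hcop
    have h1 := h.hY.eq
    have h3 : dd (.C n) (p ^ f) = Nat.gcd 2 (p ^ f - 1) := rfl
    have h4 : t ∣ dd (.C n) (p ^ f) * M := by
      rw [h1]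
      exact Dvd.dvd.mul_left ht _
    rw [h3, ← h.card_eq] at h4
    have h5 : t ∣ Nat.gcd 2 (p ^ f - 1) * (Nat.card S * S.index) := by
      apply hcop.dvd_of_dvd_mul_left
      rw [show κ * (Nat.gcd 2 (p ^ f - 1) * (Nat.card S * S.index)) =
        Nat.gcd 2 (p ^ f - 1) * (κ * (Nat.card S * S.index)) by ring]
      exact h4
    exact h5.trans (Nat.mul_dvd_mul_left _ hSI)

/-! ### numbers -/

theorem sub_dvd {q a b : ℕ} (h : a ∣ b) : q ^ a - 1 ∣ q ^ b - 1 := by
  obtain ⟨c, rfl⟩ := h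
  rw [pow_mul]
  exact Nat.sub_one_dvd_pow_sub_one (q ^ a) c

theorem pow_dvd_AA (n q e : ℕ) (he : 1 ≤ e) : (q ^ (2 * e) - 1) ^ (n / e) ∣ AA n q := by
  have hinj : Set.InjOn (fun j => e * (j + 1) - 1) (Finset.range (n / e) : Set ℕ) := by
    intro a _ b _ hab
    have h1 : e * (a + 1) - 1 = e * (b + 1) - 1 := hab
    have h2 : 1 ≤ e * (a + 1) := Nat.mul_pos he (by omega)
    have h3 : 1 ≤ e * (b + 1) := Nat.mul_pos he (by omega)
    have h4 : e * (a + 1) = e * (b + 1) := by omega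
    have h5 := Nat.eq_of_mul_eq_mul_left (by omega) h4
    omega
  have h1 : ∏ _j ∈ Finset.range (n / e), (q ^ (2 * e) - 1) ∣
      ∏ j ∈ Finset.range (n / e), (q ^ (2 * (e * (j + 1) - 1 + 1)) - 1) := by
    apply Finset.prod_dvd_prod_of_dvd
    intro j _
    apply sub_dvd
    have h3 : 1 ≤ e * (j + 1) := Nat.mul_pos he (by omega)
    rw [Nat.sub_add_cancel h3, ← mul_assoc]
    exact Dvd.intro _ rfl
  rw [Finset.prod_const, Finset.card_range] at h1
  refine h1.trans ?_
  rw [← Finset.prod_image (f := fun i => q ^ (2 * (i + 1)) - 1) hinj, AA]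
  apply Finset.prod_dvd_prod_of_subset
  intro i hi
  rw [Finset.mem_image] at hi
  obtain ⟨j, hj, rfl⟩ := hi
  rw [Finset.mem_range] at hj ⊢
  have h3 : 1 ≤ e * (j + 1) := Nat.mul_pos he (by omega)
  have h4 : e * (j + 1) ≤ e * (n / e) := Nat.mul_le_mul_left _ hj
  have h5 := Nat.mul_div_le n e
  omega

theorem two_pow_dvd_AA {q a : ℕ} (hq : Odd q) (hd : 2 ^ a ∣ q ^ 2 - 1) (n : ℕ) : 2 ^ (n * a + n / 2) ∣ AA n q := by
  induction n with
  | zero => simp
  | succ n ih =>
    have h1 : AA (n + 1) q = AA n q * (q ^ (2 * (n + 1)) - 1) := by rw [AA, Finset.prod_range_succ]; rfl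
    rw [h1]
    rcases Nat.even_or_odd (n + 1) with he | ho
    · have h2 : (n + 1) / 2 = n / 2 + 1 := by
        obtain ⟨c, hc⟩ := he
        omega
      have h3 : 2 ^ (a + 1) ∣ q ^ (2 * (n + 1)) - 1 := by
        obtain ⟨c, hc⟩ := he
        have h4 : q ^ 4 - 1 = (q ^ 2 - 1) * (q ^ 2 + 1) := by
          have h5 : q ^ 4 = (q ^ 2) ^ 2 := by rw [← pow_mul]
          have h6 := Nat.sq_sub_sq (q ^ 2) 1
          rw [one_pow] at h6
          rw [h5, h6, mul_comm]
        have h7 : q ^ 4 - 1 ∣ q ^ (2 * (n + 1)) - 1 := sub_dvd ⟨c, by omega⟩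
        refine dvd_trans ?_ h7
        rw [h4, pow_succ]
        exact Nat.mul_dvd_mul hd (hq.pow (n := 2)).add_one.two_dvd
      rw [h2, show (n + 1) * a + (n / 2 + 1) = (n * a + n / 2) + (a + 1) by ring, pow_add]
      exact Nat.mul_dvd_mul ih h3
    · have h2 : (n + 1) / 2 = n / 2 := by
        obtain ⟨c, hc⟩ := ho
        omega
      rw [h2, show (n + 1) * a + n / 2 = (n * a + n / 2) + a by ring, pow_add]
      exact Nat.mul_dvd_mul ih (hd.trans (sub_dvd (Dvd.intro _ rfl)))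

theorem neg_one_ne' {l : ℕ} [Fact l.Prime] (hl2 : l ≠ 2) : (-1 : ZMod l) ≠ 1 := by
  intro h
  have h5 : ((2 : ℕ) : ZMod l) = 0 := by
    push_cast
    have : (1 : ZMod l) + 1 = 0 := by
      nth_rewrite 1 [← h]
      ring
    rw [← this]; norm_num
  rw [ZMod.natCast_eq_zero_iff] at h5
  exact hl2 ((Nat.prime_dvd_prime_iff_eq Fact.out Nat.prime_two).1 h5)

theorem cast_add {l x : ℕ} (h : l ∣ x + 1) : ((x : ℕ) : ZMod l) = -1 := by
  have h1 : ((x + 1 : ℕ) : ZMod l) = 0 := (ZMod.natCast_eq_zero_iff _ _).2 h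
  push_cast at h1
  exact eq_neg_of_add_eq_zero_left h1

theorem cast_sub {l x : ℕ} (hx : 1 ≤ x) (h : l ∣ x - 1) : ((x : ℕ) : ZMod l) = 1 := by
  have h1 : ((x - 1 : ℕ) : ZMod l) = 0 := (ZMod.natCast_eq_zero_iff _ _).2 h
  rw [Nat.cast_sub hx, Nat.cast_one, sub_eq_zero] at h1
  exact h1

/-- `q^x ≡ 1`, `q^y ≡ -1` and `x u = y w` with `w` odd -/
theorem contra {l q x y u w : ℕ} (hl : l.Prime) (hl2 : l ≠ 2) (hq : 1 ≤ q) (hx : l ∣ q ^ x - 1) (hy : l ∣ q ^ y + 1)
    (hw : Odd w) (huw : x * u = y * w) : False := by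
  have := Fact.mk hl
  have h1 := cast_sub (Nat.one_le_pow _ _ hq) hx
  have h2 := cast_add hy
  have h3 : (((q ^ x : ℕ) : ZMod l)) ^ u = ((q ^ y : ℕ) : ZMod l) ^ w := by
    rw [← Nat.cast_pow, ← Nat.cast_pow, ← pow_mul, ← pow_mul, huw]
  rw [h1, h2, one_pow, hw.neg_one_pow] at h3
  exact neg_one_ne' hl2 h3.symm

theorem mm_dvd_odd' {n q : ℕ} (hq : 2 ≤ q) (hn : 1 ≤ n) (ho : ¬ Even n) (h3 : q ≤ 3) : mm n q ∣ q ^ n - 1 := by
  have h1 := mm_mul hq hn
  have h2 : ¬ (Even n ∨ q % 4 = 1) := by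
    rintro (h | h)
    · exact ho h
    · omega
  rw [if_neg h2] at h1
  exact Dvd.intro_left _ h1

namespace AltD

variable {k : ℕ}

theorem q_ge (h : AltD n p f M κ k) : 2 ≤ p ^ f := h.hY.q_ge

theorem k_pos (h : AltD n p f M κ k) : 0 < k := by
  obtain ⟨r, hr, -, hrk⟩ := h.hr
  have := hr.two_le
  omega

theorem ne_p (h : AltD n p f M κ k) {l e : ℕ} (hl : l.Prime) (he : 1 ≤ e) (hd : l ∣ (p ^ f) ^ (2 * e) - 1) : l ≠ p := by
  rintro rfl
  have h1 : l ∣ (l ^ f) ^ (2 * e) := (dvd_pow_self l (by have := h.hY.hf; omega)).trans (dvd_pow_self _ (by omega))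
  have h2 : 1 ≤ (l ^ f) ^ (2 * e) := Nat.one_le_pow _ _ (by have := h.q_ge; omega)
  have h3 := (Nat.dvd_sub_iff_right h2 h1).1 hd
  exact hl.one_lt.ne' (Nat.dvd_one.1 h3)

theorem not_kap (h : AltD n p f M κ k) {l e : ℕ} (hl : l.Prime) (he : 1 ≤ e) (hd : l ∣ (p ^ f) ^ (2 * e) - 1)
    (h3 : 5 ≤ n → p ^ f = 2 → l ≠ 3) (h2 : 5 ≤ n → p ^ f = 3 → l ≠ 2)
    (hm : 6 ≤ n → (Even n ∨ p ^ f ≤ 3) → ¬ l ∣ mm n (p ^ f)) : ¬ l ∣ κ := fun hk => by
  rcases h.kap l hl hk with h1 | ⟨h4, h5, h6⟩ | ⟨h4, h5, h6⟩ | ⟨h4, h5, h6, -⟩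
  · exact h.ne_p hl he hd h1
  · exact h3 h4 h5 h6
  · exact h2 h4 h5 h6
  · exact hm h4 h5 h6

theorem val (h : AltD n p f M κ k) {l e a : ℕ} (hl : l.Prime) (hl2 : l ≠ 2) (he : 1 ≤ e) (hκ : ¬ l ∣ κ)
    (hd : l ^ a ∣ (p ^ f) ^ (2 * e) - 1) : (l - 1) * (a * (n / e)) ≤ 4 * n + 3 := by
  have h1 : l ^ (a * (n / e)) ∣ AA n (p ^ f) := by
    rw [pow_mul]
    exact (pow_dvd_pow_of_dvd hd _).trans (pow_dvd_AA n _ e he)
  have h2 := h.dvd _ h1 (Nat.Coprime.pow_left _ ((Nat.Prime.coprime_iff_not_dvd hl).2 hκ))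
  have h3 : Nat.Coprime (l ^ (a * (n / e))) (Nat.gcd 2 (p ^ f - 1)) := by
    apply Nat.Coprime.pow_left
    rw [Nat.Prime.coprime_iff_not_dvd hl]
    intro h4
    exact hl2 ((Nat.prime_dvd_prime_iff_eq hl Nat.prime_two).1 (h4.trans (Nat.gcd_dvd_left _ _)))
  have h4 := h3.dvd_of_dvd_mul_left h2
  rw [hl.pow_dvd_iff_le_factorization (Nat.factorial_ne_zero k)] at h4
  have h5 := Nat.sub_one_mul_factorization_factorial (n := k) hl
  have h6 : 1 ≤ (l.digits k).sum := by
    have hnil : l.digits k ≠ [] := Nat.digits_ne_nil_iff_ne_zero.mpr h.k_pos.ne'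
    exact List.sum_pos_iff_exists_pos_nat.mpr
      ⟨_, List.getLast_mem hnil, Nat.pos_of_ne_zero (Nat.getLast_digit_ne_zero l h.k_pos.ne')⟩
  have h7 := h.hk
  calc (l - 1) * (a * (n / e)) ≤ (l - 1) * k.factorial.factorization l := Nat.mul_le_mul_left _ h4
    _ ≤ 4 * n + 3 := by omega

theorem val_two (h : AltD n p f M κ k) {a : ℕ} (hq : Odd (p ^ f)) (hκ : ¬ 2 ∣ κ)
    (hd : 2 ^ a ∣ (p ^ f) ^ 2 - 1) : n * a + n / 2 ≤ 4 * n + 4 := by
  have h1 := two_pow_dvd_AA hq hd n
  have h2 := h.dvd _ h1 (Nat.Coprime.pow_left _ ((Nat.Prime.coprime_iff_not_dvd Nat.prime_two).2 hκ))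
  have h3 : 2 ^ (n * a + n / 2) ∣ 2 * k.factorial := h2.trans (Nat.mul_dvd_mul_right (Nat.gcd_dvd_left _ _) _)
  rw [Nat.prime_two.pow_dvd_iff_le_factorization (Nat.mul_ne_zero two_ne_zero (Nat.factorial_ne_zero k)),
    Nat.factorization_mul two_ne_zero (Nat.factorial_ne_zero k), Finsupp.add_apply,
    Nat.prime_two.factorization_self] at h3
  have h5 := Nat.sub_one_mul_factorization_factorial (n := k) Nat.prime_two
  have h6 : 1 ≤ (Nat.digits 2 k).sum := by
    have hnil : Nat.digits 2 k ≠ [] := Nat.digits_ne_nil_iff_ne_zero.mpr h.k_pos.ne'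
    exact List.sum_pos_iff_exists_pos_nat.mpr
      ⟨_, List.getLast_mem hnil, Nat.pos_of_ne_zero (Nat.getLast_digit_ne_zero 2 h.k_pos.ne')⟩
  have h7 := h.hk
  have h8 := h.k_pos
  rw [show 2 - 1 = 1 from rfl, one_mul] at h5
  omega

/-- `q ≥ 4` -/
theorem dvd_1440 (h : AltD n p f M κ k) (hq : 4 ≤ p ^ f) : (p ^ f) ^ 2 - 1 ∣ 1440 := by
  have hn := h.hn
  rw [Nat.dvd_iff_prime_pow_dvd_dvd]
  intro l a hl hd
  rcases Nat.eq_zero_or_pos a with rfl | ha
  · simp
  have hd1 : l ∣ (p ^ f) ^ (2 * 1) - 1 := (dvd_pow_self l (by omega)).trans hd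
  by_cases hl2 : l = 2
  · subst hl2
    have hodd : Odd (p ^ f) := by
      by_contra hcon
      rw [Nat.not_odd_iff_even] at hcon
      have h1 : 1 ≤ (p ^ f) ^ 2 := Nat.one_le_pow _ _ (by omega)
      have h2 : 2 ∣ (p ^ f) ^ 2 := hcon.two_dvd.trans (dvd_pow_self _ (by norm_num))
      rw [show 2 * 1 = 2 from rfl] at hd1
      omega
    have hκ : ¬ 2 ∣ κ := h.not_kap hl le_rfl hd1 (fun _ _ => by norm_num) (fun _ h => by omega) (fun h6 _ h8 =>
      Nat.not_even_iff_odd.2 (mm_odd h.q_ge (by omega : 1 ≤ n)) (even_iff_two_dvd.2 h8))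
    have h1 := h.val_two hodd hκ hd
    have h2 : a ≤ 5 := by
      by_contra hcon
      have h3 : n * 6 ≤ n * a := Nat.mul_le_mul_left _ (by omega)
      omega
    exact (pow_dvd_pow 2 h2).trans (by norm_num)
  · have hκ : ¬ l ∣ κ := h.not_kap hl le_rfl hd1 (fun _ h => by omega) (fun _ h => by omega) (fun h6 h7 h8 => by
      have hev : Even n := h7.resolve_right (by omega)
      have h9 : l ∣ (p ^ f) ^ n + 1 := h8.trans (mm_dvd_even h.q_ge (by omega) hev)
      obtain ⟨c, hc⟩ := hev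
      exact contra (u := c) (w := 1) hl hl2 (by omega) hd1 h9 odd_one (by omega))
    have h1 := h.val hl hl2 le_rfl hκ hd
    rw [Nat.div_one] at h1
    have hl3 : 3 ≤ l := by have := hl.two_le; omega
    have h2 : (l - 1) * a ≤ 5 := by
      by_contra hcon
      have h3 : 6 * n ≤ (l - 1) * a * n := Nat.mul_le_mul_right _ (by omega)
      rw [mul_assoc] at h3
      omega
    have hl6 : l ≤ 6 := by
      have : (l - 1) * 1 ≤ (l - 1) * a := Nat.mul_le_mul_left _ ha
      omega
    interval_cases l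
    · have h3 : a ≤ 2 := by omega
      exact (pow_dvd_pow 3 h3).trans (by norm_num)
    · exact absurd hl (by norm_num)
    · have h3 : a ≤ 1 := by omega
      exact (pow_dvd_pow 5 h3).trans (by norm_num)
    · exact absurd hl (by norm_num)

theorem q_list (h : AltD n p f M κ k) (hq : 4 ≤ p ^ f) : p ^ f ∈ [4, 5, 7, 9, 11, 17, 19] := by
  have h1 := h.dvd_1440 hq
  generalize p ^ f = q at *
  have h2 : q ^ 2 - 1 ≤ 1440 := Nat.le_of_dvd (by norm_num) h1
  have h3 : q < 38 := by
    by_contra hcon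
    have : 38 ^ 2 ≤ q ^ 2 := Nat.pow_le_pow_left (by omega) 2
    omega
  have key : ∀ q ∈ List.range 38, 4 ≤ q → q ^ 2 - 1 ∣ 1440 → q ∈ [4, 5, 7, 9, 11, 17, 19] := by decide
  exact key q (List.mem_range.2 h3) hq h1

/-- a prime dividing `q^(2 e) - 1`, `e` odd, `q ≥ 4` -/
theorem kill_odd (h : AltD n p f M κ k) (hq : 4 ≤ p ^ f) {q l e : ℕ} (hq' : p ^ f = q) (hl : l.Prime) (hl2 : l ≠ 2)
    (he : Odd e) (hd : l ∣ q ^ (2 * e) - 1) : (l - 1) * (n / e) ≤ 4 * n + 3 := by
  rw [← hq'] at hd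
  have he1 : 1 ≤ e := he.pos
  have hκ : ¬ l ∣ κ := h.not_kap hl he1 hd (fun _ h => by omega) (fun _ h => by omega) (fun h6 h7 h8 => by
    have hev : Even n := h7.resolve_right (by omega)
    have h9 : l ∣ (p ^ f) ^ n + 1 := h8.trans (mm_dvd_even h.q_ge (by omega) hev)
    obtain ⟨c, hc⟩ := hev
    exact contra (u := c) (w := e) hl hl2 (by omega) hd h9 he (by rw [hc]; ring))
  have := h.val (a := 1) hl hl2 he1 hκ (by rwa [pow_one])
  rwa [one_mul] at this

theorem large (h : AltD n p f M κ k) (hq : 4 ≤ p ^ f) : False := by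
  have hn := h.hn
  have h1 := h.q_list hq
  have h3 : ∀ {l : ℕ}, 31 ≤ l → (l - 1) * (n / 3) ≤ 4 * n + 3 → False := by
    intro l hl h4
    have h5 : 30 * (n / 3) ≤ (l - 1) * (n / 3) := Nat.mul_le_mul_right _ (by omega)
    omega
  simp only [List.mem_cons, List.not_mem_nil, or_false] at h1
  rcases h1 with h1 | h1 | h1 | h1 | h1 | h1 | h1
  · rcases Nat.lt_or_ge n 5 with h5 | h5
    · have hd : 17 ∣ (p ^ f) ^ (2 * 2) - 1 := by rw [h1]; norm_num
      have hκ : ¬ 17 ∣ κ := h.not_kap (by norm_num) (by norm_num) hd (fun _ _ => by norm_num) (fun _ _ => by norm_num)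
        (fun h6 => by omega)
      have h6 := h.val (a := 1) (e := 2) (by norm_num) (by norm_num) (by norm_num) hκ (by rwa [pow_one])
      omega
    · have h6 := h.kill_odd hq h1 (l := 41) (e := 5) (by norm_num) (by norm_num) (by decide) (by norm_num)
      omega
  · exact h3 (by norm_num) (h.kill_odd hq h1 (l := 31) (e := 3) (by norm_num) (by norm_num) (by decide) (by norm_num))
  · exact h3 (by norm_num) (h.kill_odd hq h1 (l := 43) (e := 3) (by norm_num) (by norm_num) (by decide) (by norm_num))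
  · exact h3 (by norm_num) (h.kill_odd hq h1 (l := 73) (e := 3) (by norm_num) (by norm_num) (by decide) (by norm_num))
  · exact h3 (by norm_num) (h.kill_odd hq h1 (l := 37) (e := 3) (by norm_num) (by norm_num) (by decide) (by norm_num))
  · exact h3 (by norm_num) (h.kill_odd hq h1 (l := 307) (e := 3) (by norm_num) (by norm_num) (by decide) (by norm_num))
  · exact h3 (by norm_num) (h.kill_odd hq h1 (l := 127) (e := 3) (by norm_num) (by norm_num) (by decide) (by norm_num))

/-- `11` does not divide the order -/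
theorem eleven (h : AltD n p f M κ k) (hk : 11 ≤ k) (hp : ¬ 11 ∣ p ^ f) (hA : ¬ 11 ∣ AA n (p ^ f)) : False := by
  have h1 := h.hY.eq
  have h11 : Nat.Prime 11 := by norm_num
  have h2 : 11 ∣ 2 * M := (Nat.dvd_factorial (by norm_num) hk).trans h.pi
  have h3 : 11 ∣ M := by
    rcases (Nat.Prime.dvd_mul h11).1 h2 with h3 | h3
    · norm_num at h3
    · exact h3
  have h4 : 11 ∣ (p ^ f) ^ NN (.C n) * num (.C n) (p ^ f) := by
    rw [← h1]; exact h3.mul_left _
  rcases (Nat.Prime.dvd_mul h11).1 h4 with h5 | h5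
  · exact hp (h11.dvd_of_dvd_pow h5)
  · exact hA h5

theorem three (h : AltD n p f M κ k) (hq : p ^ f = 3) : False := by
  have hn := h.hn
  have hq2 := h.q_ge
  by_cases h3 : n = 3
  · subst h3
    obtain ⟨r, hr, ho, hrk⟩ := h.hr
    have h6 := two_mul_dvd hn hr ho
    have hr7 : 7 ≤ r := by
      have := Nat.le_of_dvd (by have := hr.two_le; omega) h6
      omega
    have hr11 : 11 ≤ r := by
      by_contra hcon
      have h7 : r = 7 := by
        interval_cases r <;> first | rfl | (exfalso; revert h6; decide)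
      subst h7
      rw [hq] at ho
      have h8 : cl 3 3 = 3 := by decide
      rw [h8] at ho
      have h9 := pow_orderOf_eq_one ((3 : ℕ) : ZMod 7)
      rw [ho] at h9
      revert h9
      decide
    refine h.eleven (by omega) ?_ ?_
    · rw [hq]; norm_num
    · rw [hq]; decide +kernel
  · by_cases hev : Even n ∧ n ≠ 4
    · obtain ⟨hev, h4⟩ := hev
      have hd : 61 ∣ (p ^ f) ^ (2 * 5) - 1 := by rw [hq]; norm_num
      have hκ : ¬ 61 ∣ κ := h.not_kap (by norm_num) (by norm_num) hd (fun _ _ => by norm_num) (fun _ _ => by norm_num)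
        (fun h6 _ h8 => by
          have h9 : 61 ∣ (p ^ f) ^ n + 1 := h8.trans (mm_dvd_even h.q_ge (by omega) hev)
          obtain ⟨c, hc⟩ := hev
          exact contra (u := c) (w := 5) (by norm_num) (by norm_num) (by omega) hd h9 (by decide) (by omega))
      have h6 := h.val (a := 1) (e := 5) (by norm_num) (by norm_num) (by norm_num) hκ (by rwa [pow_one])
      have h7 : 6 ≤ n := by
        obtain ⟨c, hc⟩ := hev
        omega
      omega
    · have hd : 41 ∣ (p ^ f) ^ (2 * 4) - 1 := by rw [hq]; norm_num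
      have hκ : ¬ 41 ∣ κ := h.not_kap (by norm_num) (by norm_num) hd (fun _ _ => by norm_num) (fun _ _ => by norm_num)
        (fun h6 _ h8 => by
          have hno : ¬ Even n := fun h => hev ⟨h, by omega⟩
          have h9 : 41 ∣ (p ^ f) ^ n - 1 := h8.trans (mm_dvd_odd' h.q_ge (by omega) hno (by omega))
          have h10 : 41 ∣ (p ^ f) ^ 4 + 1 := by rw [hq]; norm_num
          exact contra (u := 4) (w := n) (by norm_num) (by norm_num) (by omega) h9 h10
            (Nat.not_even_iff_odd.1 hno) (mul_comm _ _))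
      have h6 := h.val (a := 1) (e := 4) (by norm_num) (by norm_num) (by norm_num) hκ (by rwa [pow_one])
      omega

theorem two (h : AltD n p f M κ k) (hq : p ^ f = 2) (h3 : n ≠ 3) : False := by
  have hn := h.hn
  have hq2 := h.q_ge
  by_cases h4 : n = 4
  · subst h4
    obtain ⟨r, hr, ho, hrk⟩ := h.hr
    have h6 := two_mul_dvd hn hr ho
    have hr9 : 9 ≤ r := by
      have := Nat.le_of_dvd (by have := hr.two_le; omega) h6
      omega
    have hr11 : 11 ≤ r := by
      by_contra hcon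
      interval_cases r
      · exact absurd hr (by norm_num)
      · exact absurd hr (by norm_num)
    refine h.eleven (by omega) ?_ ?_
    · rw [hq]; norm_num
    · rw [hq]; decide +kernel
  · by_cases h43 : 14 ≤ n ∨ n = 7 ∨ n = 8 ∨ n = 9
    · have hd : 43 ∣ (p ^ f) ^ (2 * 7) - 1 := by rw [hq]; norm_num
      have hκ : ¬ 43 ∣ κ := h.not_kap (by norm_num) (by norm_num) hd (fun _ _ => by norm_num) (fun _ _ => by norm_num)
        (fun h6 _ h8 => by
          by_cases hev : Even n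
          · have h9 : 43 ∣ (p ^ f) ^ n + 1 := h8.trans (mm_dvd_even h.q_ge (by omega) hev)
            obtain ⟨c, hc⟩ := hev
            exact contra (u := c) (w := 7) (by norm_num) (by norm_num) (by omega) hd h9 (by decide) (by omega)
          · have h9 : 43 ∣ (p ^ f) ^ n - 1 := h8.trans (mm_dvd_odd' h.q_ge (by omega) hev (by omega))
            have h10 : 43 ∣ (p ^ f) ^ 7 + 1 := by rw [hq]; norm_num
            exact contra (u := 7) (w := n) (by norm_num) (by norm_num) (by omega) h9 h10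
              (Nat.not_even_iff_odd.1 hev) (mul_comm _ _))
      have h6 := h.val (a := 1) (e := 7) (by norm_num) (by norm_num) (by norm_num) hκ (by rwa [pow_one])
      omega
    · have hd : 31 ∣ (p ^ f) ^ (2 * 5) - 1 := by rw [hq]; norm_num
      have hκ : ¬ 31 ∣ κ := h.not_kap (by norm_num) (by norm_num) hd (fun _ _ => by norm_num) (fun _ _ => by norm_num)
        (fun h6 _ h8 => by
          by_cases hev : Even n
          · have h9 : 31 ∣ (p ^ f) ^ n + 1 := h8.trans (mm_dvd_even h.q_ge (by omega) hev)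
            obtain ⟨c, hc⟩ := hev
            exact contra (u := c) (w := 5) (by norm_num) (by norm_num) (by omega) hd h9 (by decide) (by omega)
          · have h9 : 31 ∣ (p ^ f) ^ n - 1 := h8.trans (mm_dvd_odd' h.q_ge (by omega) hev (by omega))
            rw [hq] at h9
            have hlt : n < 14 := by omega
            interval_cases n
            · exact hev (by decide)
            · exact h43 (by decide)
            · exact h43 (by decide)
            · exact h43 (by decide)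
            · exact hev (by decide)
            · norm_num at h9
            · exact hev (by decide)
            · norm_num at h9)
      have h6 := h.val (a := 1) (e := 5) (by norm_num) (by norm_num) (by norm_num) hκ (by rwa [pow_one])
      omega

end AltD

/-- **Task E2.** -/
theorem no_alt (h : Dat n p f M κ Γ S) (h32 : ¬ (n = 3 ∧ p ^ f = 2)) {k : ℕ} (e : S ≃* ↥(alternatingGroup (Fin k))) :
    False := by
  have hD := altD h e
  have hq := hD.q_ge
  rcases Nat.lt_or_ge (p ^ f) 4 with h4 | h4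
  · have h5 : p ^ f = 2 ∨ p ^ f = 3 := by omega
    rcases h5 with h5 | h5
    · exact hD.two h5 fun h6 => h32 ⟨h6, h5⟩
    · exact hD.three h5
  · exact hD.large h4

end Cfsg.Agent.H403.CS
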